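import Mathlib
import Cfsg.Agent.Lib.Helper80.MinSU2.Defs
import Cfsg.Agent.Lib.Helper22.MinSU.oLOC2
import Cfsg.Agent.Lib.Helper22.MinSU.oE1b
import Cfsg.Agent.Lib.Helper92.MinSU.oZT1
import Cfsg.Agent.Lib.Helper81.MinSU.G1

set_option autoImplicit false
set_option linter.unusedSectionVars false

namespace Cfsg.Agent.Lib.Helper83.MinSU2

open Matrix Cfsg.Agent.Lib.Helper13 Cfsg.Agent.Lib.Helper5 Cfsg.Agent.Lib.Helper57.RootSU
  Cfsg.Agent.Lib.Helper83.MinSU Cfsg.Agent.Lib.Helper81.MinSU Cfsg.Agent.Lib.Helper22.MinSU.O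

variable {F : Type*} [Field F] [Fintype F]

/-- [tE1b], with [tTWO] (for `m = 4`, with [tWB4] plugged in) and [tZ4] as hypotheses. -/
theorem bad_partner_of (hF : Fintype.card F = 2 ^ 2)
    (hTWO : ∀ (e : Fin (4 + 2) → F) (L : ULoc 4 F 2 (Pe 2 e)) (S : Subgroup (Pe 2 e)),
      L.rho 0 1 ∉ S → NU 2 (4 + 2) ≤ S.index ∨
        (L.Bb hF S = ⊥ ∧ L.S1 hF S = ⊤ ∧ L.Lam S = ⊤ ∧ S.index = 2 ^ (2 * 4 + 1)))
    (hZ4 : ∀ w : Fin 4 → F, w ≠ 0 → Cfsg.hermForm 4 F 2 w w = 0 →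
      ∃ z : Cfsg.SU 4 F 2, z ^ 3 = 1 ∧ (∀ v : Fin 4 → F, z.1.1 *ᵥ v = v → v = 0) ∧
        ut hF w 1 * z = z * ut hF w 1)
    (K : Subgroup (Cfsg.SU (4 + 2) F 2))
    (hK : K.index < 672) (v y : Fin (4 + 2) → F) (hv : v ≠ 0)
    (hvv : Cfsg.hermForm (4 + 2) F 2 v v = 0)
    (hvK : ut hF v 1 ∉ K) (hyy : Cfsg.hermForm (4 + 2) F 2 y y = 0)
    (hyv : Cfsg.hermForm (4 + 2) F 2 y v = 0)
    (hy : ¬ ∃ c : F, y = c • v) :
    ∃ c : F, ut hF (y + c • v) 1 ∈ K ∨ ut hF v 1 * ut hF (y + c • v) 1 ∈ K := by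
  have : Finite (Cfsg.SU (4 + 2) F 2) := Subtype.finite
  obtain ⟨e, L, he0, hee, hrho0, heps, hlam, hrho, hperp, hie⟩ := exists_loc2 hF 4 (by norm_num)
  obtain ⟨g, hg⟩ := exists_su_map hF (by norm_num) e v he0 hv hee hvv
  have hs1 := Cfsg.Agent.Lib.Helper92.MinSU.O.one_skew hF
  have hne : ut hF e 1 ∉ cj K g := by
    intro h
    rw [mem_cj, ut_conj hF g hee hs1, hg] at h
    exact hvK h
  have hA : L.rho 0 1 ∉ (cj K g).subgroupOf (Pe 2 e) := by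
    rw [Subgroup.mem_subgroupOf, hrho0 1 hs1]
    exact hne
  have hidx : ((cj K g).subgroupOf (Pe 2 e)).index ≤ (cj K g).index := by
    have h1 := Subgroup.relIndex_le_of_le_right (H := cj K g) (le_top : Pe 2 e ≤ ⊤) (by
      rw [Subgroup.relIndex_top_right]
      exact Subgroup.index_ne_zero_of_finite)
    rw [Subgroup.relIndex_top_right] at h1
    exact h1
  rw [cj_index] at hidx
  obtain ⟨hB, hS1⟩ : L.Bb hF ((cj K g).subgroupOf (Pe 2 e)) = ⊥ ∧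
      L.S1 hF ((cj K g).subgroupOf (Pe 2 e)) = ⊤ := by
    rcases hTWO e L _ hA with h | h
    · exfalso
      have e1 : NU 2 (4 + 2) = 693 := by
        unfold NU
        norm_num
      omega
    · exact ⟨h.1, h.2.1⟩
  -- the vector `w`
  have hy'e : Cfsg.hermForm (4 + 2) F 2 ((g⁻¹).1.1 *ᵥ y) e = 0 := by
    rw [← SU_preserves g, SU_mulVec_inv_mulVec, hg]
    exact hyv
  obtain ⟨w, c0, hwc⟩ := hperp _ hy'e
  have hgy : y = g.1.1 *ᵥ iota w + c0 • v := by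
    rw [← hg, ← mulVec_smul, ← mulVec_add, ← hwc, SU_mulVec_inv_mulVec]
  have hw0 : w ≠ 0 := by
    rintro rfl
    apply hy
    refine ⟨c0, ?_⟩
    rw [hgy, iota_zero, mulVec_zero, zero_add]
  have hei : Cfsg.hermForm (4 + 2) F 2 e (iota w) = 0 := hermForm_eq_zero_comm hF (hie w)
  have hww : Cfsg.hermForm 4 F 2 w w = 0 := by
    have h1 : Cfsg.hermForm (4 + 2) F 2 ((g⁻¹).1.1 *ᵥ y) ((g⁻¹).1.1 *ᵥ y) = 0 := by
      rw [SU_preserves]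
      exact hyy
    rw [hwc] at h1
    simp only [hermForm_add_left, hermForm_add_right hF, hermForm_smul_left, hermForm_smul_right,
      hee, hei, hie w, herm_iota_iota hF, mul_zero, add_zero] at h1
    exact h1
  have hww' : Cfsg.hermForm (4 + 2) F 2 (iota w) (iota w) = 0 := by
    rw [herm_iota_iota hF, hww]
  obtain ⟨z, hz3, hzfix, hzc⟩ := hZ4 w hw0 hww
  obtain ⟨x, hx1, hx⟩ := Cfsg.Agent.Lib.Helper92.MinSU.O.ztrick L _ hF hA hB hS1 z hz3 hzfix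
  obtain ⟨y0, a0, l0, hv0, hx0⟩ := L.ker_dec x hx1
  obtain ⟨y1, a1, hv1, hs⟩ : l0 ∈ L.S1 hF ((cj K g).subgroupOf (Pe 2 e)) := by
    rw [hS1]; trivial
  -- action on `iota w`
  have hact : ∀ (y' : Fin 4 → F) (a' : F), Val 2 y' a' →
      ∃ c : F, ((L.rho y' a' * L.eps l0 : Pe 2 e) : Cfsg.SU (4 + 2) F 2).1.1 *ᵥ iota w
        = iota (l0.1.1 *ᵥ w) + c • e := by
    intro y' a' hv'
    refine ⟨- Cfsg.hermForm (4 + 2) F 2 (iota (l0.1.1 *ᵥ w)) (iota y'), ?_⟩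
    have e1 : ((L.eps l0 : Pe 2 e) : Cfsg.SU (4 + 2) F 2).1.1 *ᵥ iota w = iota (l0.1.1 *ᵥ w) := by
      rw [heps]
      simp [iota]
    rw [Subgroup.coe_mul, SU_mul_mulVec, e1, hrho y' a' hv', hie]
    simp [sub_eq_add_neg]
  have hfixe : ∀ p : Pe 2 e, L.lam p = 1 → (p : Cfsg.SU (4 + 2) F 2).1.1 *ᵥ e = e := by
    intro p hp
    rw [hlam p, hp]
    simp
  obtain ⟨cx, hcx⟩ := hact y0 a0 hv0
  obtain ⟨cs, hcs⟩ := hact y1 a1 hv1
  rw [← hx0] at hcx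
  obtain ⟨s, hsdef⟩ : ∃ s : Pe 2 e, s = L.rho y1 a1 * L.eps l0 := ⟨_, rfl⟩
  rw [← hsdef] at hcs hs
  have hs1' : L.lam s = 1 := by
    rw [hsdef, map_mul, L.lam_rho _ _ hv1, L.lam_eps, one_mul]
  have hse := hfixe s hs1'
  have hxe := hfixe x hx1
  -- `G = g s⁻¹ x`
  obtain ⟨G, hG⟩ : ∃ G : Cfsg.SU (4 + 2) F 2,
      G = g * ((s : Cfsg.SU (4 + 2) F 2)⁻¹ * (x : Cfsg.SU (4 + 2) F 2)) := ⟨_, rfl⟩
  have hsie : ((s : Cfsg.SU (4 + 2) F 2)⁻¹).1.1 *ᵥ e = e := by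
    have h1 := SU_inv_mulVec_mulVec (s : Cfsg.SU (4 + 2) F 2) e
    rw [hse] at h1
    exact h1
  have hGe : G.1.1 *ᵥ e = v := by
    rw [hG, SU_mul_mulVec, SU_mul_mulVec, hxe, hsie, hg]
  have hGw : G.1.1 *ᵥ iota w = y + (cx - cs - c0) • v := by
    have e1 : (x : Cfsg.SU (4 + 2) F 2).1.1 *ᵥ iota w
        = (s : Cfsg.SU (4 + 2) F 2).1.1 *ᵥ iota w + (cx - cs) • e := by
      rw [hcx, hcs, sub_smul]
      abel
    rw [hG, SU_mul_mulVec, SU_mul_mulVec, e1, mulVec_add, mulVec_smul, SU_inv_mulVec_mulVec, hsie,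
      mulVec_add, mulVec_smul, hg, hgy]
    module
  have hmem : ∀ E : Pe 2 e, x * E * x⁻¹ ∈ (cj K g).subgroupOf (Pe 2 e) →
      G * (E : Cfsg.SU (4 + 2) F 2) * G⁻¹ ∈ K := by
    intro E hE
    have h1 : s⁻¹ * (x * E * x⁻¹) * s ∈ (cj K g).subgroupOf (Pe 2 e) :=
      Subgroup.mul_mem _ (Subgroup.mul_mem _ (Subgroup.inv_mem _ hs) hE) hs
    rw [Subgroup.mem_subgroupOf, mem_cj] at h1
    have e1 : G * (E : Cfsg.SU (4 + 2) F 2) * G⁻¹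
        = g * ((s⁻¹ * (x * E * x⁻¹) * s : Pe 2 e) : Cfsg.SU (4 + 2) F 2) * g⁻¹ := by
      rw [hG]
      push_cast
      group
    rw [e1]
    exact h1
  have heut : ((L.eps (ut hF w 1) : Pe 2 e) : Cfsg.SU (4 + 2) F 2) = ut hF (iota w) 1 :=
    eq_ut_iota hF w 1 hww hs1 _ (heps _)
  refine ⟨cx - cs - c0, ?_⟩
  rcases hx (ut hF w 1) hzc with h | h
  · left
    have h2 := hmem _ h
    rw [heut, ut_conj hF G hww' hs1, hGw] at h2
    exact h2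
  · right
    have h2 := hmem _ h
    rw [Subgroup.coe_mul, heut, hrho0 1 hs1] at h2
    have e2 : G * (ut hF e 1 * ut hF (iota w) 1) * G⁻¹
        = (G * ut hF e 1 * G⁻¹) * (G * ut hF (iota w) 1 * G⁻¹) := by group
    rw [e2, ut_conj hF G hww' hs1, ut_conj hF G hee hs1, hGw, hGe] at h2
    exact h2

end Cfsg.Agent.Lib.Helper83.MinSU2
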