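import Mathlib
import Cfsg.Agent.Lib.Helper83.MinSU2.tE1b
import Cfsg.Agent.Lib.Helper83.MinSU2.tWB4
import Cfsg.Agent.Lib.Helper22.MinSU2.tTWO
import Cfsg.Agent.Lib.Helper57.MinSU2.tZ4

set_option autoImplicit false
set_option linter.unusedSectionVars false

namespace Cfsg.Agent.Lib.Helper83.MinSU2

open Matrix Cfsg.Agent.Lib.Helper13 Cfsg.Agent.Lib.Helper5 Cfsg.Agent.Lib.Helper57.RootSU
  Cfsg.Agent.Lib.Helper83.MinSU

variable {F : Type*} [Field F] [Fintype F]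

/-- [tE1b] -/
theorem bad_partner (hF : Fintype.card F = 2 ^ 2) (K : Subgroup (Cfsg.SU 6 F 2))
    (hK : K.index < 672) (v y : Fin 6 → F) (hv : v ≠ 0) (hvv : Cfsg.hermForm 6 F 2 v v = 0)
    (hvK : ut hF v 1 ∉ K) (hyy : Cfsg.hermForm 6 F 2 y y = 0) (hyv : Cfsg.hermForm 6 F 2 y v = 0)
    (hy : ¬ ∃ c : F, y = c • v) :
    ∃ c : F, ut hF (y + c • v) 1 ∈ K ∨ ut hF v 1 * ut hF (y + c • v) 1 ∈ K :=
  bad_partner_of hF
    (fun e L S hA => by
      have : Finite (Cfsg.SU (4 + 2) F 2) := Subtype.finite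
      exact Cfsg.Agent.Lib.Helper22.MinSU2.local_two L S hF le_rfl (by decide) (wb4_two hF) hA)
    (fun w hw hww => Cfsg.Agent.Lib.Helper57.MinSU2.exists_z4 hF w hw hww)
    K hK v y hv hvv hvK hyy hyv hy

end Cfsg.Agent.Lib.Helper83.MinSU2
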