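import Mathlib
import Cfsg.Agent.Lib.Helper28.MinSU.S1base
import Cfsg.Agent.Lib.Helper28.MinSU.S1d0
import Cfsg.Agent.Lib.Helper5.SUOrder

set_option autoImplicit false

namespace Cfsg.Agent.Lib.Helper83.MinSU2

open Matrix Module Cfsg.Agent.Lib.Helper13 Cfsg.Agent.Lib.Helper5 Cfsg.Agent.Lib.Helper57.RootSU
  Cfsg.Agent.Lib.Helper83.MinSU Cfsg.Agent.Lib.Helper28.MinSU

variable {F : Type*} [Field F] [Fintype F] {q m n : ℕ}

theorem half_succ1 (k : ℕ) : (k + 1) * (k + 1 - 1) / 2 = k * (k - 1) / 2 + k := by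
  obtain ⟨t, ht⟩ := Nat.even_mul_pred_self k
  have e : (k + 1) * (k + 1 - 1) = k * (k - 1) + 2 * k := by
    cases k with
    | zero => rfl
    | succ s =>
      have a1 : s + 1 + 1 - 1 = s + 1 := by omega
      have a2 : s + 1 - 1 = s := by omega
      rw [a1, a2]
      ring
  rw [e, ht]
  omega

theorem nondeg_span_singleton (e : Fin n → F) (hee : Cfsg.hermForm n F q e e ≠ 0) :
    Nondeg q (Submodule.span F {e}) := by
  intro u hu h
  obtain ⟨a, rfl⟩ := Submodule.mem_span_singleton.mp hu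
  have h1 := h e (Submodule.mem_span_singleton_self e)
  rw [hermForm_smul_left] at h1
  rcases mul_eq_zero.mp h1 with h2 | h2
  · rw [h2, zero_smul]
  · exact absurd h2 hee

/-- index of the stabiliser of a nonisotropic point, `n` even -/
theorem index_Pe_noniso_mul (hF : Fintype.card F = q ^ 2) (hn : 2 ≤ n) (he : Even n)
    (e : Fin n → F) (hee : Cfsg.hermForm n F q e e ≠ 0) :
    (Pe q e).index * (q + 1) = q ^ (n - 1) * (q ^ n - 1) := by
  have hq := two_le_of_card_sq hF
  have he0 : e ≠ 0 := by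
    rintro rfl
    apply hee
    simp [Cfsg.hermForm]
  obtain ⟨k, rfl⟩ : ∃ k, n = k + 1 := ⟨n - 1, by omega⟩
  have hk : ¬ Even k := by
    intro h
    exact (Nat.not_even_iff_odd.2 h.add_one) he
  have hW0 : (Submodule.span F {e} : Submodule F (Fin (k + 1) → F)) ≠ ⊥ := by
    rw [Ne, Submodule.span_singleton_eq_bot]
    exact he0
  have h1 := index_St_mul hF (by omega : 1 ≤ k + 1) (Submodule.span F {e})
  rw [card_su_stab_nondeg_mul hF _ hW0 (nondeg_span_singleton e hee),
    finrank_span_singleton he0] at h1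
  have e1 : k + 1 - 1 = k := by omega
  rw [e1] at h1 ⊢
  have hfin : Finite (Cfsg.GU k F q) := Subtype.finite
  have hpos : 0 < Nat.card (Cfsg.GU k F q) := Nat.card_pos
  have hg1 : Nat.card (Cfsg.GU 1 F q) = q + 1 := by
    rw [card_GU hF 1]
    simp
  rw [hg1, card_GU hF (k + 1), card_GU hF k, half_succ1 k, Finset.prod_range_succ _ k,
    if_neg hk, pow_add] at h1
  rw [card_GU hF k] at hpos
  set Pk := ∏ i ∈ Finset.range k, (if Even i then q ^ (i + 1) + 1 else q ^ (i + 1) - 1) with hPk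
  set T := q ^ (k * (k - 1) / 2) with hT
  have key : ((Pe q e).index * (q + 1)) * (T * Pk) = (q ^ k * (q ^ (k + 1) - 1)) * (T * Pk) := by
    calc ((Pe q e).index * (q + 1)) * (T * Pk)
        = (St q (Submodule.span F {e})).index * ((q + 1) * (T * Pk)) := by
          rw [mul_assoc]; rfl
      _ = _ := by rw [h1]; ring
  exact Nat.eq_of_mul_eq_mul_right hpos key

end Cfsg.Agent.Lib.Helper83.MinSU2
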