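import Mathlib
import Cfsg.Agent.Lib.Helper80.MinSU2.Defs
import Cfsg.Agent.Lib.Helper83.MinSU2.PNI

set_option autoImplicit false

namespace Cfsg.Agent.Lib.Helper83.MinSU2

open Matrix Cfsg.Agent.Lib.Helper13 Cfsg.Agent.Lib.Helper5 Cfsg.Agent.Lib.Helper57.RootSU
  Cfsg.Agent.Lib.Helper83.MinSU Cfsg.Agent.Lib.Helper80.MinSU2

variable {F : Type*} [Field F] [Fintype F] {m n : ℕ}

/-- [tPEX] the stabiliser of a nonisotropic point -/
theorem index_Pe_noniso (hF : Fintype.card F = 2 ^ 2) (hn : 2 ≤ n) (he : Even n) (z : Fin n → F)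
    (hz : Cfsg.hermForm n F 2 z z ≠ 0) : (Pe 2 z).index = ME n := by
  have h := index_Pe_noniso_mul hF hn he z hz
  unfold ME
  rw [← h]
  simp

end Cfsg.Agent.Lib.Helper83.MinSU2
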